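import Cfsg.Agent.ThreeTrans.VClass
import Cfsg.Agent.ThreeTrans.WidthOne

/-!
Classes of 3-transpositions in which commuting is an equivalence: invariant Sylow 3-subgroups.
-/

set_option autoImplicit false

namespace Cfsg.Agent.ThreeTrans

open Cfsg

variable {G : Type*} [Group G] {D : Set G}

/-- An involution acting on a coset of a subgroup of odd order fixes a point. -/
theorem exists_commute_mul [Finite G] {P : Subgroup G} (hP : ¬ 2 ∣ Nat.card P) {d g : G}
    (hd : d * d = 1) (hdP : d ∈ Subgroup.normalizer (P : Set G))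
    (hg : g⁻¹ * (d * g * d⁻¹) ∈ P) : ∃ p ∈ P, d * (g * p) * d⁻¹ = g * p := by
  classical
  have hmem : ∀ p : P, g⁻¹ * (d * (g * (p : G)) * d⁻¹) ∈ P := by
    intro p
    have h1 : d * (p : G) * d⁻¹ ∈ P := (Subgroup.mem_normalizer_iff.1 hdP _).1 p.2
    have h2 : g⁻¹ * (d * (g * (p : G)) * d⁻¹) = g⁻¹ * (d * g * d⁻¹) * (d * (p : G) * d⁻¹) := by
      group
    rw [h2]
    exact mul_mem hg h1
  let f : P → P := fun p => ⟨_, hmem p⟩
  have hf : Function.Involutive f := by
    intro p
    apply Subtype.ext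
    change g⁻¹ * (d * (g * (g⁻¹ * (d * (g * (p : G)) * d⁻¹))) * d⁻¹) = p
    have hdi : d⁻¹ = d := inv_eq_of_mul_eq_one_left hd
    rw [hdi]
    calc g⁻¹ * (d * (g * (g⁻¹ * (d * (g * (p : G)) * d))) * d)
        = g⁻¹ * ((d * d) * (g * (p : G)) * (d * d)) := by group
      _ = p := by rw [hd]; group
  have : Fintype P := Fintype.ofFinite P
  have hfp := Equiv.Perm.exists_fixed_point_of_prime (p := 2) (n := 1) (α := P)
    (by rw [← Nat.card_eq_fintype_card]; exact hP) (σ := hf.toPerm) (by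
      ext p
      simp [pow_two, hf p])
  obtain ⟨p, hp⟩ := hfp
  have h3 : g⁻¹ * (d * (g * (p : G)) * d⁻¹) = p := congrArg Subtype.val hp
  refine ⟨p, p.2, ?_⟩
  rw [inv_mul_eq_iff_eq_mul] at h3
  exact h3

theorem eq_one_of_two_three {N P : Subgroup G} (hN : IsPGroup 2 N) (hP : IsPGroup 3 P) {x : G}
    (h1 : x ∈ N) (h2 : x ∈ P) : x = 1 := by
  obtain ⟨k, hk⟩ := hN ⟨x, h1⟩
  obtain ⟨l, hl⟩ := hP ⟨x, h2⟩
  have hk' : x ^ 2 ^ k = 1 := congrArg Subtype.val hk
  have hl' : x ^ 3 ^ l = 1 := congrArg Subtype.val hl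
  have h3 := orderOf_dvd_of_pow_eq_one hk'
  have h4 := orderOf_dvd_of_pow_eq_one hl'
  have hc : Nat.Coprime (2 ^ k) (3 ^ l) := Nat.Coprime.pow _ _ (by norm_num)
  exact orderOf_eq_one_iff.1 (Nat.eq_one_of_dvd_coprimes hc h3 h4)

theorem eq_one_of_cube {N : Subgroup G} (hN : IsPGroup 2 N) {x : G}
    (h1 : x ∈ N) (h2 : x ^ 3 = 1) : x = 1 := by
  obtain ⟨k, hk⟩ := hN ⟨x, h1⟩
  have hk' : x ^ 2 ^ k = 1 := congrArg Subtype.val hk
  have h3 := orderOf_dvd_of_pow_eq_one hk'
  have h4 := orderOf_dvd_of_pow_eq_one h2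
  have hc : Nat.Coprime (2 ^ k) 3 := Nat.Coprime.pow_left _ (by norm_num)
  exact orderOf_eq_one_iff.1 (Nat.eq_one_of_dvd_coprimes hc h3 h4)

theorem grow [Finite G] (hD : Cfsg.IsThreeTranspositionSet D)
    (hconj : ∀ g : G, ∀ d ∈ D, g * d * g⁻¹ ∈ D) {N : Subgroup G} [hNn : N.Normal]
    (hN : IsPGroup 2 N) (hV : ∀ a ∈ D, ∀ b ∈ D, Commute a b → a * b ∈ N) {d e₀ : G}
    {P : Subgroup G} (hd : d ∈ D) (he₀ : e₀ ∈ D) (hnc : ¬ Commute d e₀) (hP : IsPGroup 3 P)
    (hdP : d ∈ Subgroup.normalizer (P : Set G)) (hy : d * e₀ ∈ P) {g : G}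
    (hgn : g ∈ Subgroup.normalizer (P : Set G))
    (hg3 : IsPGroup 3 (Subgroup.zpowers g ⊔ P : Subgroup G)) (hgP : g ∉ P) :
    ∃ x, x ∉ P ∧ x ∈ Subgroup.normalizer (P : Set G) ∧ IsPGroup 3 (Subgroup.zpowers x) ∧
      (d * x * d⁻¹ = x ∨ d * x * d⁻¹ = x⁻¹) := by
  have hdd := mul_self_of_mem hD hd
  have hdi := inv_of_mem hD hd
  have he := hconj g d hd
  by_cases hA : d * (g * d * g⁻¹) ∈ P ⊔ N
  · -- the involution centralises the coset
    set π := QuotientGroup.mk' N with hπ
    have hodd : ¬ 2 ∣ Nat.card (P.map π) := by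
      obtain ⟨k, hk⟩ := (IsPGroup.iff_card).1 (hP.map π)
      rw [hk]
      intro h
      have := Nat.Prime.dvd_of_dvd_pow Nat.prime_two h
      omega
    have hnP : ∀ x ∈ Subgroup.normalizer (P : Set G),
        π x ∈ Subgroup.normalizer ((P.map π : Subgroup (G ⧸ N)) : Set (G ⧸ N)) := by
      intro x hx
      rw [Subgroup.mem_normalizer_iff]
      intro h
      constructor
      · rintro ⟨p, hp, rfl⟩
        exact ⟨x * p * x⁻¹, (Subgroup.mem_normalizer_iff.1 hx p).1 hp, by simp⟩
      · rintro ⟨p, hp, hp'⟩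
        refine ⟨x⁻¹ * p * x, ?_, ?_⟩
        · have := (Subgroup.mem_normalizer_iff.1 (inv_mem hx) p).1 hp
          rwa [inv_inv] at this
        · simp only [map_mul, map_inv, hp']
          group
    have hAP : π (d * (g * d * g⁻¹)) ∈ P.map π := by
      have h1 : π (d * (g * d * g⁻¹)) ∈ (P ⊔ N).map π := Subgroup.mem_map_of_mem _ hA
      rw [Subgroup.map_sup, show N.map π = ⊥ by
        rw [hπ, QuotientGroup.map_mk'_self], sup_bot_eq] at h1
      exact h1
    have hg1 : (π g)⁻¹ * (π d * π g * (π d)⁻¹) ∈ P.map π := by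
      have h1 := (Subgroup.mem_normalizer_iff.1 (inv_mem (hnP g hgn)) _).1 hAP
      have h2 : (π g)⁻¹ * π (d * (g * d * g⁻¹)) * (π g)⁻¹⁻¹ =
          (π g)⁻¹ * (π d * π g * (π d)⁻¹) := by
        rw [← map_inv π d, hdi]
        simp only [map_mul, map_inv]
        group
      rw [h2] at h1
      exact h1
    obtain ⟨p', ⟨p, hp, rfl⟩, hp2⟩ := exists_commute_mul hodd (d := π d) (g := π g)
      (by rw [← map_mul, hdd, map_one]) (hnP d hdP) hg1
    set x := g * p with hx
    have hxn : x ∈ Subgroup.normalizer (P : Set G) := mul_mem hgn (Subgroup.le_normalizer hp)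
    refine ⟨x, ?_, hxn, ?_, Or.inl ?_⟩
    · intro h
      exact hgP ((Subgroup.mul_mem_cancel_right P hp).1 h)
    · refine hg3.to_le ?_
      rw [Subgroup.zpowers_le]
      exact mul_mem (Subgroup.mem_sup_left (Subgroup.mem_zpowers g)) (Subgroup.mem_sup_right hp)
    · have he' := hconj x d hd
      set z := d * (x * d * x⁻¹) with hz
      have hzN : z ∈ N := by
        have h1 : π z = 1 := by
          rw [← map_mul π g p, ← hx] at hp2
          have h2 : π z = π d * π x * (π d)⁻¹ * (π x)⁻¹ := by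
            rw [← map_inv π d, hdi, hz]
            simp only [map_mul, map_inv]
            group
          rw [h2, hp2, mul_inv_cancel]
        rw [hπ, QuotientGroup.mk'_apply, QuotientGroup.eq_one_iff] at h1
        exact h1
      have hzn : z ∈ Subgroup.normalizer (P : Set G) :=
        mul_mem hdP (mul_mem (mul_mem hxn hdP) (inv_mem hxn))
      have he₀n : e₀ ∈ Subgroup.normalizer (P : Set G) := by
        have h1 : e₀ = d * (d * e₀) := by rw [← mul_assoc, hdd, one_mul]
        rw [h1]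
        exact mul_mem hdP (Subgroup.le_normalizer hy)
      have hcomm : ∀ w ∈ N, w ∈ Subgroup.normalizer (P : Set G) → ∀ q ∈ P, Commute w q := by
        intro w hw hwn q hq
        have h1 : w * q * w⁻¹ * q⁻¹ ∈ P :=
          mul_mem ((Subgroup.mem_normalizer_iff.1 hwn q).1 hq) (inv_mem hq)
        have h2 : w * q * w⁻¹ * q⁻¹ ∈ N := by
          have h3 : w * q * w⁻¹ * q⁻¹ = w * (q * w⁻¹ * q⁻¹) := by group
          rw [h3]
          exact mul_mem hw (hNn.conj_mem _ (inv_mem hw) q)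
        have h3 := eq_one_of_two_three hN hP h2 h1
        rw [mul_inv_eq_one, mul_inv_eq_iff_eq_mul] at h3
        exact h3
      set w := e₀ * z * e₀⁻¹ with hw
      have hwN : w ∈ N := hNn.conj_mem _ hzN _
      have hwn : w ∈ Subgroup.normalizer (P : Set G) :=
        mul_mem (mul_mem he₀n hzn) (inv_mem he₀n)
      have hee := mul_self_of_mem hD he₀
      have hei := inv_of_mem hD he₀
      have hc : Commute (d * e₀) w := (hcomm w hwN hwn _ hy).symm
      have hprod : (x * d * x⁻¹) * e₀ = (d * e₀) * w := by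
        rw [hw, hz, hei]
        calc (x * d * x⁻¹) * e₀ = 1 * (x * d * x⁻¹) * e₀ := by rw [one_mul]
          _ = (d * 1 * d) * (x * d * x⁻¹) * e₀ := by rw [mul_one, hdd]
          _ = (d * (e₀ * e₀) * d) * (x * d * x⁻¹) * e₀ := by rw [hee]
          _ = _ := by group
      have hy3 : (d * e₀) ^ 3 = 1 := cube_of_not_commute hD hd he₀ hnc
      have hw1 : w = 1 := by
        rcases hD.2 _ he' _ he₀ with h | h
        · exfalso
          rw [hprod, hc.mul_pow] at h
          have h1 : (d * e₀) ^ 2 ∈ N := by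
            rw [mul_eq_one_iff_eq_inv.1 h]
            exact inv_mem (pow_mem hwN 2)
          have h2 := eq_one_of_two_three hN hP h1 (pow_mem hy 2)
          exact hnc ((commute_iff_sq hdd hee).2 h2)
        · rw [hprod, hc.mul_pow, hy3, one_mul] at h
          exact eq_one_of_cube hN hwN h
      have hz1 : z = 1 := by
        have : z = e₀⁻¹ * w * e₀ := by rw [hw]; group
        rw [this, hw1]; group
      have h4 : x * d * x⁻¹ = d := by
        have := mul_eq_one_iff_eq_inv'.1 (hz.symm.trans hz1)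
        rw [this, hdi]
      rw [mul_inv_eq_iff_eq_mul] at h4
      rw [← h4, mul_inv_cancel_right]
  · have hncd : ¬ Commute d (g * d * g⁻¹) := by
      intro h
      exact hA (Subgroup.mem_sup_right (hV _ hd _ he h))
    refine ⟨d * (g * d * g⁻¹), fun h => hA (Subgroup.mem_sup_left h),
      mul_mem hdP (mul_mem (mul_mem hgn hdP) (inv_mem hgn)), ?_, Or.inr ?_⟩
    · have h3 := cube_of_not_commute hD hd he hncd
      intro ⟨y, hy⟩
      obtain ⟨j, rfl⟩ := Subgroup.mem_zpowers_iff.1 hy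
      refine ⟨1, ?_⟩
      apply Subtype.ext
      change ((d * (g * d * g⁻¹)) ^ j) ^ (3 ^ 1) = 1
      rw [pow_one, ← zpow_natCast, ← zpow_mul, mul_comm, zpow_mul]
      have : (d * (g * d * g⁻¹)) ^ ((3 : ℕ) : ℤ) = 1 := by rw [zpow_natCast]; exact h3
      rw [this, one_zpow]
    · have hei := inv_of_mem hD he
      rw [mul_inv_rev, hei, hdi, ← mul_assoc d d, hdd, one_mul]

theorem mem_normalizer_of_sq {d : G} (hdd : d * d = 1) {Q : Subgroup G}
    (h : ∀ q ∈ Q, d * q * d⁻¹ ∈ Q) : d ∈ Subgroup.normalizer (Q : Set G) := by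
  rw [Subgroup.mem_normalizer_iff]
  intro q
  refine ⟨h q, fun hq => ?_⟩
  have h1 := h _ hq
  have hdi : d⁻¹ = d := inv_eq_of_mul_eq_one_left hdd
  have h2 : d * (d * q * d⁻¹) * d⁻¹ = q := by
    rw [hdi]
    calc d * (d * q * d) * d = (d * d) * q * (d * d) := by group
      _ = q := by rw [hdd, one_mul, mul_one]
  rwa [h2] at h1

/-- An invariant Sylow 3-subgroup. -/
theorem exists_invariant_sylow_three [Finite G] (hD : Cfsg.IsThreeTranspositionSet D)
    (hconj : ∀ g : G, ∀ d ∈ D, g * d * g⁻¹ ∈ D) {N : Subgroup G} [hNn : N.Normal]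
    (hN : IsPGroup 2 N) (hV : ∀ a ∈ D, ∀ b ∈ D, Commute a b → a * b ∈ N) {d e₀ : G}
    (hd : d ∈ D) (he₀ : e₀ ∈ D) (hnc : ¬ Commute d e₀) :
    ∃ P : Sylow 3 G, d ∈ Subgroup.normalizer (P : Set G) := by
  classical
  have : Fact (Nat.Prime 3) := ⟨Nat.prime_three⟩
  have hdd := mul_self_of_mem hD hd
  have hdi := inv_of_mem hD hd
  have hei := inv_of_mem hD he₀
  have hconjz : ∀ x : G, (d * x * d⁻¹ = x ∨ d * x * d⁻¹ = x⁻¹) →
      ∀ q ∈ Subgroup.zpowers x, d * q * d⁻¹ ∈ Subgroup.zpowers x := by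
    rintro x hx q hq
    obtain ⟨j, rfl⟩ := Subgroup.mem_zpowers_iff.1 hq
    rw [← conj_zpow]
    apply zpow_mem
    rcases hx with h | h
    · rw [h]; exact Subgroup.mem_zpowers x
    · rw [h]; exact inv_mem (Subgroup.mem_zpowers x)
  -- the family
  let S : Set (Subgroup G) := {P | IsPGroup 3 P ∧ d ∈ Subgroup.normalizer (P : Set G) ∧ d * e₀ ∈ P}
  have hS : S.Nonempty := by
    refine ⟨Subgroup.zpowers (d * e₀), ?_, ?_, Subgroup.mem_zpowers _⟩
    · have h3 := cube_of_not_commute hD hd he₀ hnc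
      intro ⟨y, hy⟩
      obtain ⟨j, rfl⟩ := Subgroup.mem_zpowers_iff.1 hy
      refine ⟨1, ?_⟩
      apply Subtype.ext
      change ((d * e₀) ^ j) ^ (3 ^ 1) = 1
      rw [pow_one, ← zpow_natCast, ← zpow_mul, mul_comm, zpow_mul]
      have : (d * e₀) ^ ((3 : ℕ) : ℤ) = 1 := by rw [zpow_natCast]; exact h3
      rw [this, one_zpow]
    · apply mem_normalizer_of_sq hdd
      apply hconjz
      right
      rw [mul_inv_rev, hei, hdi, ← mul_assoc d d, hdd, one_mul]
  obtain ⟨P, hP⟩ := (Set.toFinite S).exists_maximal hS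
  obtain ⟨⟨hP3, hdP, hy⟩, hmax⟩ := hP
  obtain ⟨Q, hPQ⟩ := hP3.exists_le_sylow
  rcases hPQ.lt_or_eq with hlt | heq
  · exfalso
    -- an element of `Q` outside `P` normalising `P`
    have hnil : Group.IsNilpotent Q := Q.isPGroup'.isNilpotent
    have hnc' := Group.normalizerCondition_of_isNilpotent (G := ↥(Q : Subgroup G))
    have h1 : P.subgroupOf Q < ⊤ := by
      rw [lt_top_iff_ne_top, Ne, Subgroup.subgroupOf_eq_top]
      exact not_le_of_gt hlt
    obtain ⟨g, hg1, hg2⟩ := SetLike.exists_of_lt (hnc' _ h1)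
    have hgP : (g : G) ∉ P := fun h => hg2 (Subgroup.mem_subgroupOf.2 h)
    have hgn : (g : G) ∈ Subgroup.normalizer (P : Set G) := by
      rw [Subgroup.mem_normalizer_iff] at hg1 ⊢
      intro p
      constructor
      · intro hp
        have := (hg1 ⟨p, hPQ hp⟩).1 (Subgroup.mem_subgroupOf.2 hp)
        exact Subgroup.mem_subgroupOf.1 this
      · intro hp
        have hpQ : p ∈ (Q : Subgroup G) := by
          have h2 := hPQ hp
          have h3 : p = (g : G)⁻¹ * ((g : G) * p * (g : G)⁻¹) * g := by group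
          rw [h3]
          exact mul_mem (mul_mem (inv_mem g.2) h2) g.2
        have := (hg1 ⟨p, hpQ⟩).2 (Subgroup.mem_subgroupOf.2 hp)
        exact Subgroup.mem_subgroupOf.1 this
    have hg3 : IsPGroup 3 (Subgroup.zpowers (g : G) ⊔ P : Subgroup G) := by
      refine Q.isPGroup'.to_le (sup_le ?_ hPQ)
      rw [Subgroup.zpowers_le]
      exact g.2
    obtain ⟨x, hxP, hxn, hx3, hdx⟩ := grow hD hconj hN hV hd he₀ hnc hP3 hdP hy hgn hg3 hgP
    have hR : (Subgroup.zpowers x ⊔ P : Subgroup G) ∈ S := by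
      refine ⟨hx3.to_sup_of_normal_right' hP3 ?_, ?_, Subgroup.mem_sup_right hy⟩
      · rw [Subgroup.zpowers_le]
        exact hxn
      · apply mem_normalizer_of_sq hdd
        have h2 : (Subgroup.zpowers x ⊔ P : Subgroup G) ≤
            (Subgroup.zpowers x ⊔ P : Subgroup G).comap (MulAut.conj d).toMonoidHom := by
          apply sup_le
          · intro q hq
            exact Subgroup.mem_sup_left (hconjz x hdx q hq)
          · intro q hq
            exact Subgroup.mem_sup_right ((Subgroup.mem_normalizer_iff.1 hdP q).1 hq)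
        intro q hq
        exact h2 hq
    exact hxP (hmax hR le_sup_right (Subgroup.mem_sup_left (Subgroup.mem_zpowers x)))
  · refine ⟨Q, ?_⟩
    have h5 : (Q : Set G) = ((Q : Subgroup G) : Set G) := rfl
    rw [h5, ← heq]
    exact hdP

/-- Modulo the largest normal 2-subgroup the group is generated by a member and its largest normal
3-subgroup. -/
theorem generate_of_perp [Finite G] (hD : Cfsg.IsThreeTranspositionSet D)
    (hconj : ∀ g : G, ∀ d ∈ D, g * d * g⁻¹ ∈ D) (hgen : Subgroup.closure D = ⊤)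
    {N : Subgroup G} [hNn : N.Normal]
    (hN : IsPGroup 2 N) (hV : ∀ a ∈ D, ∀ b ∈ D, Commute a b → a * b ∈ N)
    (hnc : ∀ a ∈ D, ∃ b ∈ D, ¬ Commute a b) {d : G} (hd : d ∈ D) (P : Sylow 3 G) :
    Subgroup.zpowers d ⊔ (P : Subgroup G) ⊔ N = ⊤ := by
  have : Fact (Nat.Prime 3) := ⟨Nat.prime_three⟩
  set π := QuotientGroup.mk' N with hπ
  have hπs : Function.Surjective π := QuotientGroup.mk'_surjective N
  set E : Set (G ⧸ N) := π '' D with hE
  have hDE : Cfsg.IsThreeTranspositionSet E := by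
    constructor
    · rintro _ ⟨a, ha, rfl⟩
      have haa := mul_self_of_mem hD ha
      rw [orderOf_eq_prime_iff]
      refine ⟨by rw [pow_two, ← map_mul, haa, map_one], ?_⟩
      intro h1
      rw [hπ, QuotientGroup.mk'_apply, QuotientGroup.eq_one_iff] at h1
      obtain ⟨b, hb, hab⟩ := hnc a ha
      have h3 := cube_of_not_commute hD ha hb hab
      have h4 := braid_of_not_commute hD ha hb hab
      have hbi := inv_of_mem hD hb
      have hbb := mul_self_of_mem hD hb
      have h5 : a * b ∈ N := by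
        -- `a b = (b a b a) a^{-1}...`
        have h6 : a * b = a * (b * a * b⁻¹) * (a * (b * a * b⁻¹)) := by
          rw [hbi]
          have h7 : a * (b * a * b) = b * a := by
            have h8 : b * (a * b) = a * (b * a) := h4
            calc a * (b * a * b) = a * (b * (a * b)) := by group
              _ = a * (a * (b * a)) := by rw [h8]
              _ = (a * a) * (b * a) := by group
              _ = b * a := by rw [haa, one_mul]
          rw [h7]
          have h9 : (a * b) ^ 3 = 1 := h3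
          have h10 : b * a = (a * b)⁻¹ := by
            rw [mul_inv_rev, hbi, inv_of_mem hD ha]
          rw [h10, ← mul_inv_rev, eq_inv_iff_mul_eq_one]
          rw [← h9, pow_three]
        rw [h6]
        exact mul_mem (mul_mem h1 (hNn.conj_mem _ h1 b)) (mul_mem h1 (hNn.conj_mem _ h1 b))
      have h6 := eq_one_of_cube hN h5 h3
      apply hab
      have h7 := mul_eq_one_iff_eq_inv.1 h6
      rw [h7]
      exact (Commute.refl b).inv_left
    · rintro _ ⟨a, ha, rfl⟩ _ ⟨b, hb, rfl⟩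
      rcases hD.2 a ha b hb with h | h
      · left; rw [← map_mul, ← map_pow, h, map_one]
      · right; rw [← map_mul, ← map_pow, h, map_one]
  have hEconj : ∀ g : G ⧸ N, ∀ e ∈ E, g * e * g⁻¹ ∈ E := by
    rintro g _ ⟨a, ha, rfl⟩
    obtain ⟨g, rfl⟩ := hπs g
    exact ⟨g * a * g⁻¹, hconj g a ha, by simp⟩
  have hEw : ∀ a ∈ E, ∀ b ∈ E, Commute a b → a = b := by
    rintro _ ⟨a, ha, rfl⟩ _ ⟨b, hb, rfl⟩ hab
    have haa := mul_self_of_mem hD ha
    have hbb := mul_self_of_mem hD hb
    have haa' : π a * π a = 1 := by rw [← map_mul, haa, map_one]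
    have hbb' : π b * π b = 1 := by rw [← map_mul, hbb, map_one]
    by_cases h : Commute a b
    · have h1 := hV a ha b hb h
      have h2 : π (a * b) = 1 := by
        rw [hπ, QuotientGroup.mk'_apply, QuotientGroup.eq_one_iff]
        exact h1
      rw [map_mul] at h2
      have h3 := mul_eq_one_iff_eq_inv.1 h2
      rw [h3]
      exact inv_eq_of_mul_eq_one_left hbb'
    · have h3 := cube_of_not_commute hD ha hb h
      apply eq_of_commute_of_cube haa' hbb' hab
      rw [← map_mul, ← map_pow, h3, map_one]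
  have hEP : ∀ a ∈ E, ∀ b ∈ E, a * b ∈ (P : Subgroup G).map π := by
    intro a ha b hb
    have h1 := mul_mem_three_core_of_width_one hDE hEconj hEw ha hb
    exact Solv.pCore_le_sylow (P.mapSurjective hπs) h1
  rw [eq_top_iff, ← hgen, Subgroup.closure_le]
  intro e he
  obtain ⟨p, hp, hpe⟩ := hEP (π d) ⟨d, hd, rfl⟩ (π e) ⟨e, he, rfl⟩
  rw [← map_mul] at hpe
  have h1 : p⁻¹ * (d * e) ∈ N := by
    rw [← QuotientGroup.eq_one_iff, ← QuotientGroup.mk'_apply, ← hπ, map_mul, map_inv, hpe,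
      inv_mul_cancel]
  have h2 : e = d * p * (p⁻¹ * (d * e)) := by
    have hdd := mul_self_of_mem hD hd
    calc e = (d * d) * e := by rw [hdd, one_mul]
      _ = _ := by group
  rw [SetLike.mem_coe, h2]
  refine mul_mem (Subgroup.mem_sup_left (mul_mem ?_ ?_)) (Subgroup.mem_sup_right h1)
  · exact Subgroup.mem_sup_left (Subgroup.mem_zpowers d)
  · exact Subgroup.mem_sup_right hp

end Cfsg.Agent.ThreeTrans
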